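import Cfsg.Agent.H661.OC.OwnRX

/-!
# S4829: the witness from one constituent (helper356)

`Θ` a character of `A`, `θ₁` an irreducible character of `S` which occurs once in `Θ|S`; the irreducible characters of
`S` of the degree of `θ₁` are `θ₁`, `θ₂`. The irreducible constituent of `Θ` over `θ₁` is a witness.
-/

set_option autoImplicit false

open Cfsg

namespace Cfsg.Agent.H356.CY

open Cfsg.Agent.Characters Cfsg.Agent.H770.CY
open scoped ComplexConjugate

universe u v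

/-- a sum of products of natural numbers equal to one -/
theorem exists_of_sum_eq_one {ι : Type*} [Fintype ι] (c : ι → ℕ) (h : ∑ i, c i = 1) :
    ∃ i, c i = 1 ∧ ∀ j, c j ≠ 0 → j = i := by
  classical
  obtain ⟨i, hi⟩ : ∃ i, c i ≠ 0 := by
    by_contra hcon
    push Not at hcon
    rw [Finset.sum_congr rfl fun i _ => hcon i, Finset.sum_const_zero] at h
    exact zero_ne_one h
  have h1 := Finset.add_sum_erase Finset.univ c (Finset.mem_univ i)
  refine ⟨i, by omega, fun j hj => ?_⟩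
  by_contra hji
  have h2 : c j ≤ ∑ x ∈ Finset.univ.erase i, c x :=
    Finset.single_le_sum (f := c) (fun _ _ => Nat.zero_le _) (Finset.mem_erase.2 ⟨hji, Finset.mem_univ j⟩)
  omega

section part

variable {G : Type u} {S : Type v} [Group G] [Fintype G] [Group S] [Fintype S] {ι : S →* G}

theorem classInner_comp_eq_sum [Fintype (IrrCharacter G)] {Θ : G → ℂ} (hΘ : IsCharacter G Θ) (θ : S → ℂ) :
    classInner (Θ ∘ ι) θ = ∑ χ : IrrCharacter G, classInner Θ (χ : G → ℂ) * classInner ((χ : G → ℂ) ∘ ι) θ := by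
  have e2 : Θ ∘ ι = ∑ χ : IrrCharacter G, classInner Θ (χ : G → ℂ) • ((χ : G → ℂ) ∘ ι) := by
    funext s
    rw [Function.comp_apply]
    conv_lhs => rw [Core.classFunction_eq_sum (Core.isCharacter_isClassFunction hΘ)]
    simp only [Function.comp_apply, Finset.sum_apply, Pi.smul_apply]
  conv_lhs => rw [e2]
  rw [Core.classInner_sum_left]
  exact Finset.sum_congr rfl fun χ _ => Core.classInner_smul_left _ _ _

/-- the constituent over `θ₁` -/
theorem exists_over {Θ : G → ℂ} (hΘ : IsCharacter G Θ) {θ₁ : S → ℂ} (hθ : IsIrrCharacter S θ₁)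
    (h1 : classInner (Θ ∘ ι) θ₁ = 1) : ∃ χ : IrrCharacter G, classInner ((χ : G → ℂ) ∘ ι) θ₁ = 1 ∧
      (∀ χ' : IrrCharacter G, classInner Θ (χ' : G → ℂ) ≠ 0 → classInner ((χ' : G → ℂ) ∘ ι) θ₁ ≠ 0 → χ' = χ) ∧
      classInner Θ (χ : G → ℂ) = 1 := by
  classical
  have : Finite (IrrCharacter G) := Core.finite_irr
  let _ : Fintype (IrrCharacter G) := Fintype.ofFinite _
  have hnat : ∀ χ : IrrCharacter G, ∃ n : ℕ, classInner Θ (χ : G → ℂ) = n :=
    fun χ => Core.classInner_isNat hΘ (Core.isIrr_isCharacter χ.2)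
  have hnat2 : ∀ χ : IrrCharacter G, ∃ n : ℕ, classInner ((χ : G → ℂ) ∘ ι) θ₁ = n :=
    fun χ => Core.classInner_isNat (Core.isCharacter_comp ι (Core.isIrr_isCharacter χ.2)) (Core.isIrr_isCharacter hθ)
  choose a ha using hnat
  choose b hb using hnat2
  have h2 : ∑ χ : IrrCharacter G, a χ * b χ = 1 := by
    have h3 := classInner_comp_eq_sum (ι := ι) hΘ θ₁
    rw [h1, Finset.sum_congr rfl fun χ _ => by rw [ha, hb]] at h3
    exact_mod_cast h3.symm
  obtain ⟨χ, h3, h4⟩ := exists_of_sum_eq_one _ h2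
  have h5 := Nat.eq_one_of_mul_eq_one_right h3
  have h6 := Nat.eq_one_of_mul_eq_one_left h3
  refine ⟨χ, ?_, fun χ' h7 h8 => h4 χ' ?_, ?_⟩
  · rw [hb, h6, Nat.cast_one]
  · rw [ha] at h7
    rw [hb] at h8
    exact mul_ne_zero (fun h => h7 (by rw [h, Nat.cast_zero])) (fun h => h8 (by rw [h, Nat.cast_zero]))
  · rw [ha, h5, Nat.cast_one]

/-- the multiplicities in a constituent -/
theorem le_of_constituent {Θ : G → ℂ} (hΘ : IsCharacter G Θ) {χ : IrrCharacter G} (h1 : classInner Θ (χ : G → ℂ) = 1)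
    {θ : S → ℂ} (hθ : IsIrrCharacter S θ) {m n : ℕ} (hm : classInner ((χ : G → ℂ) ∘ ι) θ = m)
    (hn : classInner (Θ ∘ ι) θ = n) : m ≤ n := by
  classical
  have : Finite (IrrCharacter G) := Core.finite_irr
  let _ : Fintype (IrrCharacter G) := Fintype.ofFinite _
  have hnat : ∀ χ : IrrCharacter G, ∃ n : ℕ, classInner Θ (χ : G → ℂ) = n :=
    fun χ => Core.classInner_isNat hΘ (Core.isIrr_isCharacter χ.2)
  have hnat2 : ∀ χ : IrrCharacter G, ∃ n : ℕ, classInner ((χ : G → ℂ) ∘ ι) θ = n :=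
    fun χ => Core.classInner_isNat (Core.isCharacter_comp ι (Core.isIrr_isCharacter χ.2)) (Core.isIrr_isCharacter hθ)
  choose a ha using hnat
  choose b hb using hnat2
  have h2 : ∑ χ : IrrCharacter G, a χ * b χ = n := by
    have h3 := classInner_comp_eq_sum (ι := ι) hΘ θ
    rw [hn, Finset.sum_congr rfl fun χ _ => by rw [ha, hb]] at h3
    exact_mod_cast h3.symm
  have h3 : a χ = 1 := by
    rw [ha] at h1
    exact_mod_cast h1
  have h4 : b χ = m := by
    rw [hb] at hm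
    exact_mod_cast hm
  have h5 : a χ * b χ ≤ ∑ χ : IrrCharacter G, a χ * b χ :=
    Finset.single_le_sum (f := fun χ => a χ * b χ) (fun _ _ => Nat.zero_le _) (Finset.mem_univ χ)
  rw [h2, h3, h4, one_mul] at h5
  exact h5

/-- the constituent over `θ₁` is fixed by the powers which fix `Θ` and `θ₁` -/
theorem over_pow (hι : Function.Injective ι) {Θ : G → ℂ} (hΘ : IsCharacter G Θ) {θ₁ : S → ℂ} (hθ : IsIrrCharacter S θ₁)
    {χ : IrrCharacter G} (h1 : classInner Θ (χ : G → ℂ) ≠ 0) (h2 : classInner ((χ : G → ℂ) ∘ ι) θ₁ ≠ 0)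
    (hu : ∀ χ' : IrrCharacter G, classInner Θ (χ' : G → ℂ) ≠ 0 → classInner ((χ' : G → ℂ) ∘ ι) θ₁ ≠ 0 → χ' = χ)
    {k : ℕ} (hk : k.Coprime (Nat.card G)) (hΘk : ∀ g : G, Θ (g ^ k) = Θ g) (hθk : ∀ s : S, θ₁ (s ^ k) = θ₁ s) (g : G) :
    (χ : G → ℂ) (g ^ k) = (χ : G → ℂ) g := by
  obtain ⟨σ, hσ⟩ := GaloisBasic.exists_ringEquiv_pow (Nat.card_pos (α := G)).ne' hk
  have hσG : ∀ (χ : G → ℂ), IsCharacter G χ → ∀ g : G, σ (χ g) = χ (g ^ k) := fun χ hχ g =>
    GaloisBasic.map_apply_card σ hσ hχ g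
  have hcard : Nat.card S ∣ Nat.card G := by
    rw [Nat.card_congr (MonoidHom.ofInjective hι).toEquiv]
    exact Subgroup.card_subgroup_dvd_card _
  have hσS : ∀ (χ : S → ℂ), IsCharacter S χ → ∀ g : S, σ (χ g) = χ (g ^ k) := fun χ hχ g =>
    GaloisBasic.map_apply_card σ (fun z hz => hσ z (by
      obtain ⟨m, hm⟩ := hcard
      rw [hm, pow_mul, hz, one_pow])) hχ g
  let χ' : IrrCharacter G := ⟨fun g => (χ : G → ℂ) (g ^ k), GaloisIrr.isIrr_pow hk χ.2⟩
  have hEσ : (χ' : G → ℂ) = fun g => σ ((χ : G → ℂ) g) :=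
    funext fun g => (hσG χ (Core.isIrr_isCharacter χ.2) g).symm
  have h3 : χ' = χ := by
    refine hu χ' ?_ ?_
    · have h4 : classInner Θ (χ' : G → ℂ) = σ (classInner Θ (χ : G → ℂ)) := by
        rw [← GaloisIrr.classInner_map σ (Core.isIrr_isCharacter χ.2), hEσ]
        congr 1
        funext g
        rw [hσG Θ hΘ, hΘk]
      rw [h4]
      exact fun h => h1 (σ.injective (by rw [h, map_zero]))
    · have h4 : ((χ' : G → ℂ) ∘ ι) = fun s => σ (((χ : G → ℂ) ∘ ι) s) := by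
        funext s
        rw [Function.comp_apply, hEσ]
        rfl
      have h5 : θ₁ = fun s => σ (θ₁ s) := by
        funext s
        rw [hσS θ₁ (Core.isIrr_isCharacter hθ), hθk]
      rw [h4, h5, GaloisIrr.classInner_map σ (Core.isIrr_isCharacter hθ)]
      exact fun h => h2 (σ.injective (by rw [h, map_zero]))
  exact congrFun (congrArg Subtype.val h3) g

end part

/-- **The witness from one constituent.** -/
theorem witA_of_pair {p : ℕ} [Fact p.Prime] (hp2 : p ≠ 2) {S : Type u} [Group S] [Fintype S] {M : Ideal AlgInt}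
    (hM : IsPModular p M) (A : Subgroup (MulAut S)) (hA : ∀ s : S, MulAut.conj s ∈ A)
    (hinj : Function.Injective (MulAut.conj : S →* MulAut S))
    (hC : ∀ a : A, ¬ p ∣ orderOf a → (∃ Q : Sylow p S, ∀ x ∈ Q, (a : MulAut S) x = x) → a = 1)
    {Θ : A → ℂ} (hΘ : IsCharacter A Θ) (hΘc : Cyc p Θ) (θ₁ θ₂ : IrrCharacter S) {d : ℕ} (hd : (θ₁ : S → ℂ) 1 = d)
    (hd1 : d ≠ 1) (hpd : ¬ p ∣ d) (hne : θ₁ ≠ θ₂)
    (hall : ∀ θ : IrrCharacter S, (θ : S → ℂ) 1 = d → θ = θ₁ ∨ θ = θ₂)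
    (hc1 : Cyc p (θ₁ : S → ℂ)) (hc2 : Cyc p (θ₂ : S → ℂ))
    (h1 : classInner (res hA Θ) (θ₁ : S → ℂ) = 1)
    (h2 : classInner (res hA Θ) (θ₂ : S → ℂ) = 0 ∨ classInner (res hA Θ) (θ₂ : S → ℂ) = 1) :
    ∃ Ψ : A → ℂ, WitA p M S A hA Ψ := by
  classical
  have hp : p.Prime := Fact.out
  have : Fintype A := Fintype.ofFinite _
  have : Finite (IrrCharacter S) := Core.finite_irr
  let _ : Fintype (IrrCharacter S) := Fintype.ofFinite _
  let ι : S →* A := (MulAut.conj : S →* MulAut S).codRestrict A hA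
  have hι : Function.Injective ι := fun x y h => hinj (congrArg Subtype.val h)
  have hn : ι.range.Normal := H661.OC.range_normal A hA
  have hres : ∀ Ψ : A → ℂ, res hA Ψ = Ψ ∘ ι := fun _ => rfl
  rw [hres] at h1
  rw [hres] at h2
  obtain ⟨χ, k1, k2, k3⟩ := exists_over hΘ θ₁.2 h1
  have hχc : IsCharacter A (χ : A → ℂ) := Core.isIrr_isCharacter χ.2
  have hχι : IsCharacter S ((χ : A → ℂ) ∘ ι) := Core.isCharacter_comp ι hχc
  have hnat : ∀ θ : IrrCharacter S, ∃ n : ℕ, classInner ((χ : A → ℂ) ∘ ι) (θ : S → ℂ) = n :=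
    fun θ => Core.classInner_isNat hχι (Core.isIrr_isCharacter θ.2)
  choose b hb using hnat
  have hb1 : b θ₁ = 1 := by
    have := hb θ₁
    rw [k1] at this
    exact_mod_cast this.symm
  have hb2 : b θ₂ = 0 ∨ b θ₂ = 1 := by
    rcases h2 with h2 | h2
    · have := le_of_constituent (ι := ι) hΘ k3 θ₂.2 (hb θ₂) (n := 0) (by rw [h2, Nat.cast_zero])
      omega
    · have := le_of_constituent (ι := ι) hΘ k3 θ₂.2 (hb θ₂) (n := 1) (by rw [h2, Nat.cast_one])
      omega
  have hb0 : ∀ θ : IrrCharacter S, b θ ≠ 0 → θ = θ₁ ∨ θ = θ₂ := by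
    intro θ h
    refine hall θ ?_
    have h3 := H661.OC.deg_eq hι hn χ.2 θ₁.2 θ.2 (by rw [k1]; exact one_ne_zero)
      (by rw [hb]; exact_mod_cast h)
    rw [h3, hd]
  refine ⟨(χ : A → ℂ), ⟨hχc, fun k hk hkp g => ?_, ?_, fun θ => ?_, fun a ha hQ => ?_⟩⟩
  · refine over_pow hι hΘ θ₁.2 (by rw [k3]; exact one_ne_zero) (by rw [k1]; exact one_ne_zero) k2 hk (hΘc k hk hkp)
      (hc1 k ?_ hkp) g
    have hcard : Nat.card S ∣ Nat.card A := by
      rw [Nat.card_congr (MonoidHom.ofInjective hι).toEquiv]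
      exact Subgroup.card_subgroup_dvd_card _
    exact Nat.Coprime.coprime_dvd_right hcard hk
  · have e1 : (χ : A → ℂ) 1 = ((b θ₁ + b θ₂) * d : ℕ) := by
      have h3 := congrFun (Core.classFunction_eq_sum (Core.isCharacter_isClassFunction hχι)) 1
      rw [Function.comp_apply, map_one] at h3
      rw [h3]
      simp only [Finset.sum_apply, Pi.smul_apply, smul_eq_mul]
      have h4 : ∑ θ : IrrCharacter S, classInner ((χ : A → ℂ) ∘ ι) (θ : S → ℂ) * (θ : S → ℂ) 1 =
          ∑ θ ∈ ({θ₁, θ₂} : Finset (IrrCharacter S)), (b θ : ℂ) * (θ : S → ℂ) 1 := by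
        rw [← Finset.sum_subset (Finset.subset_univ ({θ₁, θ₂} : Finset (IrrCharacter S)))]
        · exact Finset.sum_congr rfl fun θ _ => by rw [hb]
        · intro θ _ hθ
          have h5 : b θ = 0 := by
            by_contra h6
            apply hθ
            rcases hb0 θ h6 with h7 | h7
            · rw [h7]; exact Finset.mem_insert_self _ _
            · rw [h7]; exact Finset.mem_insert_of_mem (Finset.mem_singleton_self _)
          rw [hb, h5, Nat.cast_zero, zero_mul]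
      rw [h4, Finset.sum_pair hne, hd]
      rcases hb2 with h5 | h5
      · rw [h5, hb1]; push_cast; ring
      · have h6 : (θ₂ : S → ℂ) 1 = d := by
          have h7 := H661.OC.deg_eq hι hn χ.2 θ₁.2 θ₂.2 (by rw [k1]; exact one_ne_zero)
            (by rw [hb, h5, Nat.cast_one]; exact one_ne_zero)
          rw [h7, hd]
        rw [h5, hb1, h6]; push_cast; ring
    refine ⟨_, e1, fun h => ?_⟩
    rcases hp.dvd_mul.1 h with h | h
    · have h3 : b θ₁ + b θ₂ = 1 ∨ b θ₁ + b θ₂ = 2 := by omega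
      rcases h3 with h3 | h3
      · rw [h3] at h
        exact hp.one_lt.ne' (Nat.dvd_one.1 h)
      · rw [h3] at h
        exact hp2 ((Nat.prime_dvd_prime_iff_eq hp Nat.prime_two).1 h)
    · exact hpd h
  · rw [H661.OC.mul_eq, hres]
    by_cases h3 : b θ = 0
    · left
      rw [hb, h3, Nat.cast_zero]
    · right
      have hθd : (θ : S → ℂ) 1 = d := by
        have h7 := H661.OC.deg_eq hι hn χ.2 θ₁.2 θ.2 (by rw [k1]; exact one_ne_zero)
          (by rw [hb]; exact_mod_cast h3)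
        rw [h7, hd]
      have hθ1 : (θ : S → ℂ) ≠ fun _ => 1 := by
        intro h
        rw [h] at hθd
        have : (1 : ℂ) = d := hθd
        exact hd1 (by exact_mod_cast this.symm)
      rcases hb0 θ h3 with rfl | rfl
      · exact ⟨k1, hθ1, hc1⟩
      · refine ⟨?_, hθ1, hc2⟩
        rw [hb]
        rcases hb2 with h5 | h5
        · exact absurd h5 h3
        · rw [h5, Nat.cast_one]
  · rw [hC a ha hQ, sub_self]
    exact ⟨0, 1, M.zero_mem, fun h => hM.2.1.ne_top (M.eq_top_of_isUnit_mem h isUnit_one), by simp⟩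

end Cfsg.Agent.H356.CY
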