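import Cfsg.Agent.H356.CY.Reg
import Cfsg.Agent.H356.CY.Pair

/-!
# S4829, rank one in own characteristic: the multiplicities (helper356)

`Θ` = the character of `A` induced from the canonical extension of `ψ`.

* `ggc`, `isCharacter_ggc`, `cyc_ggc`;
* `inner_ggc` : `[Θ|S, θ]` as a sum over `A` of multiplicities of `ψ` in `θ ∘ a`.
-/

set_option autoImplicit false

open Cfsg

namespace Cfsg.Agent.H356.CY

open Cfsg.Agent.Characters Cfsg.Agent.H770.CY
open scoped ComplexConjugate Pointwise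

universe u

variable {p : ℕ} {S : Type u} [Group S] {U P₀ : Sylow p S}

/-- the Gelfand-Graev character of `A` -/
noncomputable def ggc (h : Reg U P₀) (ψ : (U : Subgroup S) →* ℂˣ) (A : Subgroup (MulAut S)) [Fintype A] : A → ℂ :=
  indFun (Reg.st U ψ A) (fun a => ((h.hat ψ A a : ℂˣ) : ℂ))

variable (h : Reg U P₀) (ψ : (U : Subgroup S) →* ℂˣ) (A : Subgroup (MulAut S)) [Fintype A]

theorem isCharacter_ggc : IsCharacter A (ggc h ψ A) := Brauer.isCharacter_indFun _ (Linear.isCharacter_hom _)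

theorem cyc_ggc [Fact p.Prime] (hψ : ∀ u, ψ u ^ p = 1) : Cyc p (ggc h ψ A) := by
  intro k hk hkp g
  have hl : ∀ b : Reg.st U ψ A, h.hat ψ A (b ^ k) = h.hat ψ A b := by
    intro b
    rw [map_pow]
    have h1 : h.hat ψ A b ^ p = 1 := by
      rw [Reg.hat_apply]
      exact hψ _
    obtain ⟨m, hm⟩ : ∃ m, orderOf (h.hat ψ A b) * m = p := by
      obtain ⟨m, hm⟩ := orderOf_dvd_of_pow_eq_one h1
      exact ⟨m, hm.symm⟩
    have h2 : k ≡ 1 [MOD orderOf (h.hat ψ A b)] := Nat.ModEq.of_dvd (orderOf_dvd_of_pow_eq_one h1) hkp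
    conv_rhs => rw [← pow_one (h.hat ψ A b)]
    exact (pow_eq_pow_iff_modEq).2 h2
  show indFun _ _ _ = indFun _ _ _
  rw [Core.indFun_apply, Core.indFun_apply]
  congr 1
  refine Finset.sum_congr rfl fun x _ => ?_
  have e : x⁻¹ * g ^ k * x = (x⁻¹ * g * x) ^ k := by
    have := conj_pow (i := k) (a := x⁻¹) (b := g)
    rw [inv_inv] at this
    exact this.symm
  rw [e]
  set y := x⁻¹ * g * x with hy
  by_cases hyB : y ∈ Reg.st U ψ A
  · rw [Core.extendByZero_of_mem _ _ hyB, Core.extendByZero_of_mem _ _ ((Reg.st U ψ A).pow_mem hyB k)]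
    exact congrArg Units.val (hl ⟨y, hyB⟩)
  · have hyk : y ^ k ∉ Reg.st U ψ A := by
      intro h
      apply hyB
      obtain ⟨j, hj⟩ := exists_pow_eq_self_of_coprime (hk.coprime_dvd_right (orderOf_dvd_natCard y))
      rw [← hj]
      exact (Reg.st U ψ A).pow_mem h j
    rw [Core.extendByZero_of_notMem _ _ hyB, Core.extendByZero_of_notMem _ _ hyk]

/-- the multiplicity of `ψ` in `φ` -/
noncomputable def mU [Fintype (U : Subgroup S)] (ψ : (U : Subgroup S) →* ℂˣ) (φ : S → ℂ) : ℂ :=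
  (Nat.card (U : Subgroup S) : ℂ)⁻¹ * ∑ u : (U : Subgroup S), ((ψ u : ℂˣ) : ℂ) * conj (φ u)

/-- `ψ` is not fixed by an element of `N_S(U)` outside `U` -/
def Free (U : Sylow p S) (ψ : (U : Subgroup S) →* ℂˣ) : Prop :=
  ∀ s : S, MulAut.conj s • U = U →
    (∀ (u : S) (hu : u ∈ U) (hsu : MulAut.conj s u ∈ U), ψ ⟨MulAut.conj s u, hsu⟩ = ψ ⟨u, hu⟩) → s ∈ U

omit [Fintype A] in
theorem ext_conj (hA : ∀ s : S, MulAut.conj s ∈ A) (t : S) (ht : t ∈ U) :
    extendByZero (Reg.st U ψ A) (fun a => ((h.hat ψ A a : ℂˣ) : ℂ)) ⟨MulAut.conj t, hA t⟩ = ((ψ ⟨t, ht⟩ : ℂˣ) : ℂ) := by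
  rw [Core.extendByZero_of_mem _ _ (Reg.conj_mem_st ψ ht (hA t))]
  rw [h.hat_conj ψ ht (hA t)]

omit [Fintype A] in
theorem ext_conj_zero (hA : ∀ s : S, MulAut.conj s ∈ A) (hf : Free U ψ) (t : S) (ht : t ∉ U) :
    extendByZero (Reg.st U ψ A) (fun a => ((h.hat ψ A a : ℂˣ) : ℂ)) ⟨MulAut.conj t, hA t⟩ = 0 :=
  Core.extendByZero_of_notMem _ _ fun hm => ht (hf t hm.1 hm.2)

/-- **the multiplicity as a sum over `A`** -/
theorem inner_ggc [Fintype S] [Fintype (U : Subgroup S)] (hA : ∀ s : S, MulAut.conj s ∈ A) (hf : Free U ψ) (θ : S → ℂ) :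
    classInner (res hA (ggc h ψ A)) θ = (Nat.card S : ℂ)⁻¹ * (Nat.card (Reg.st U ψ A) : ℂ)⁻¹ *
      (Nat.card (U : Subgroup S) : ℂ) * ∑ a : A, mU ψ (fun s => θ ((a : MulAut S) s)) := by
  classical
  have hU0 : (Nat.card (U : Subgroup S) : ℂ) ≠ 0 := Core.card_ne_zero_complex
  have key : ∀ a : A, ∑ s : S, extendByZero (Reg.st U ψ A) (fun a => ((h.hat ψ A a : ℂˣ) : ℂ))
      (a⁻¹ * ⟨MulAut.conj s, hA s⟩ * a) * conj (θ s) = (Nat.card (U : Subgroup S) : ℂ) * mU ψ (fun s => θ ((a : MulAut S) s)) := by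
    intro a
    have e1 : ∑ s : S, extendByZero (Reg.st U ψ A) (fun a => ((h.hat ψ A a : ℂˣ) : ℂ))
        (a⁻¹ * ⟨MulAut.conj s, hA s⟩ * a) * conj (θ s) =
        ∑ t : S, extendByZero (Reg.st U ψ A) (fun a => ((h.hat ψ A a : ℂˣ) : ℂ))
          ⟨MulAut.conj t, hA t⟩ * conj (θ ((a : MulAut S) t)) := by
      symm
      refine Fintype.sum_equiv (a : MulAut S).toEquiv _ _ fun t => ?_
      congr 2
      apply Subtype.ext
      apply MulEquiv.ext
      intro x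
      show t * x * t⁻¹ = (a : MulAut S)⁻¹ ((a : MulAut S) t * (a : MulAut S) x * ((a : MulAut S) t)⁻¹)
      rw [← map_mul, ← map_inv, ← map_mul, MulAut.inv_apply_self]
    rw [e1, mU, mul_inv_cancel_left₀ hU0]
    rw [← Finset.sum_subset (Finset.subset_univ (Finset.univ.filter fun t : S => t ∈ (U : Subgroup S)))]
    · rw [Finset.sum_subtype (p := fun t => t ∈ (U : Subgroup S)) _ (fun x => by
        rw [Finset.mem_filter]
        exact ⟨fun h => h.2, fun h => ⟨Finset.mem_univ _, h⟩⟩)]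
      exact Finset.sum_congr rfl fun t _ => by rw [ext_conj h ψ A hA t t.2]
    · intro t _ ht
      rw [ext_conj_zero h ψ A hA hf t (fun hm => ht (Finset.mem_filter.2 ⟨Finset.mem_univ _, hm⟩)), zero_mul]
  have e0 : classInner (res hA (ggc h ψ A)) θ = (Nat.card S : ℂ)⁻¹ * ∑ s : S, ((Nat.card (Reg.st U ψ A) : ℂ)⁻¹ *
      ∑ a : A, extendByZero (Reg.st U ψ A) (fun a => ((h.hat ψ A a : ℂˣ) : ℂ)) (a⁻¹ * ⟨MulAut.conj s, hA s⟩ * a)) *
        conj (θ s) := rfl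
  rw [e0]
  have e1 : ∑ s : S, ((Nat.card (Reg.st U ψ A) : ℂ)⁻¹ *
      ∑ a : A, extendByZero (Reg.st U ψ A) (fun a => ((h.hat ψ A a : ℂˣ) : ℂ)) (a⁻¹ * ⟨MulAut.conj s, hA s⟩ * a)) *
        conj (θ s) = (Nat.card (Reg.st U ψ A) : ℂ)⁻¹ * ∑ a : A, ∑ s : S,
          extendByZero (Reg.st U ψ A) (fun a => ((h.hat ψ A a : ℂˣ) : ℂ)) (a⁻¹ * ⟨MulAut.conj s, hA s⟩ * a) * conj (θ s) := by
    rw [Finset.sum_comm, Finset.mul_sum]
    refine Finset.sum_congr rfl fun s _ => ?_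
    rw [Finset.mul_sum, Finset.mul_sum, Finset.sum_mul]
    exact Finset.sum_congr rfl fun a _ => by ring
  rw [e1, Finset.sum_congr rfl fun a _ => key a, ← Finset.mul_sum]
  ring

end Cfsg.Agent.H356.CY
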