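import Cfsg.Agent.H356.CY.GG

/-!
# S4829, rank one in own characteristic: the multiplicities are 0 and 1, the witness (helper356)
-/

set_option autoImplicit false
set_option linter.unusedSectionVars false

open Cfsg

namespace Cfsg.Agent.H356.CY

open Cfsg.Agent.Characters Cfsg.Agent.H770.CY
open scoped ComplexConjugate Pointwise

universe u

theorem card_sup_mul {G : Type*} [Group G] [Finite G] (N I : Subgroup G) [N.Normal] :
    Nat.card (N ⊔ I : Subgroup G) * Nat.card (N ⊓ I : Subgroup G) = Nat.card N * Nat.card I := by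
  have h1 := Subgroup.relIndex_mul_relIndex (⊥ : Subgroup G) N (N ⊔ I) bot_le le_sup_left
  have h2 := Subgroup.relIndex_mul_relIndex (⊥ : Subgroup G) (N ⊓ I) I bot_le inf_le_right
  rw [Subgroup.relIndex_bot_left, Subgroup.relIndex_bot_left] at h1 h2
  rw [Subgroup.relIndex_sup_left] at h1
  rw [Subgroup.inf_relIndex_right] at h2
  rw [← h1, ← h2]
  ring

variable {p : ℕ} {S : Type u} [Group S] {U P₀ : Sylow p S}

/-- the stabilizer of a function -/
def stf (θ : S → ℂ) (A : Subgroup (MulAut S)) : Subgroup A where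
  carrier := {a | ∀ s, θ ((a : MulAut S) s) = θ s}
  one_mem' := fun _ => rfl
  mul_mem' := by
    intro a b ha hb s
    show θ ((a : MulAut S) ((b : MulAut S) s)) = θ s
    rw [ha, hb]
  inv_mem' := by
    intro a ha s
    show θ ((a : MulAut S)⁻¹ s) = θ s
    rw [← ha ((a : MulAut S)⁻¹ s), MulAut.apply_inv_self]

theorem mem_stf {θ : S → ℂ} {A : Subgroup (MulAut S)} {a : A} : a ∈ stf θ A ↔ ∀ s, θ ((a : MulAut S) s) = θ s := Iff.rfl

variable [Fact p.Prime] [Fintype S] [Fintype (U : Subgroup S)]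

/-- `ψ` and `θ` have the same multiplicity after an automorphism fixing `U`, `ψ` -/
theorem mU_comp (ψ : (U : Subgroup S) →* ℂˣ) (θ : S → ℂ) {A : Subgroup (MulAut S)} {a : A} (ha : a ∈ Reg.st U ψ A) :
    mU ψ (fun s => θ ((a : MulAut S) s)) = mU ψ θ := by
  unfold mU
  congr 1
  let e : (U : Subgroup S) ≃ (U : Subgroup S) :=
    { toFun := fun u => ⟨(a : MulAut S) u, mem_of_smul ha.1 u.2⟩
      invFun := fun u => ⟨(a : MulAut S)⁻¹ u, by
        have h1 := ((Reg.st U ψ A).inv_mem ha).1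
        exact mem_of_smul h1 u.2⟩
      left_inv := fun u => Subtype.ext (MulAut.inv_apply_self _ _ _)
      right_inv := fun u => Subtype.ext (MulAut.apply_inv_self _ _ _) }
  refine Fintype.sum_equiv e _ _ fun u => ?_
  have h2 : ψ (e u) = ψ u := ha.2 u u.2 _
  rw [h2]
  rfl

variable (h : Reg U P₀) (ψ : (U : Subgroup S) →* ℂˣ) (A : Subgroup (MulAut S)) [Fintype A]

/-- the hypotheses on the two characters -/
structure Two (U : Sylow p S) [Fintype (U : Subgroup S)] (ψ : (U : Subgroup S) →* ℂˣ) (θ₁ θ₂ : IrrCharacter S) : Prop where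
  free : Free U ψ
  perm1 : ∀ a : MulAut S, (∀ s, (θ₁ : S → ℂ) (a s) = (θ₁ : S → ℂ) s) ∨ (∀ s, (θ₁ : S → ℂ) (a s) = (θ₂ : S → ℂ) s)
  perm2 : ∀ a : MulAut S, (∀ s, (θ₂ : S → ℂ) (a s) = (θ₁ : S → ℂ) s) ∨ (∀ s, (θ₂ : S → ℂ) (a s) = (θ₂ : S → ℂ) s)
  m1 : mU ψ (θ₁ : S → ℂ) = 1
  m2 : mU ψ (θ₂ : S → ℂ) = 0
  orb : ∀ a : MulAut S, a • U = U → (∀ s, (θ₁ : S → ℂ) (a s) = (θ₁ : S → ℂ) s) →
    ∃ t : S, MulAut.conj t • U = U ∧ ∀ (u : S) (_ : u ∈ U) (h1 : a u ∈ U) (h2 : MulAut.conj t u ∈ U),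
      ψ ⟨a u, h1⟩ = ψ ⟨MulAut.conj t u, h2⟩

variable {ψ} {θ₁ θ₂ : IrrCharacter S}

theorem sum_mU (hT : Two U ψ θ₁ θ₂) (θ : IrrCharacter S)
    (hp : ∀ a : MulAut S, (∀ s, (θ : S → ℂ) (a s) = (θ₁ : S → ℂ) s) ∨ (∀ s, (θ : S → ℂ) (a s) = (θ₂ : S → ℂ) s)) :
    ∑ a : A, mU ψ (fun s => (θ : S → ℂ) ((a : MulAut S) s)) =
      (Nat.card {a : A // ∀ s, (θ : S → ℂ) ((a : MulAut S) s) = (θ₁ : S → ℂ) s} : ℂ) := by
  classical
  rw [Nat.card_eq_fintype_card, Fintype.card_subtype, Finset.card_filter, Nat.cast_sum]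
  refine Finset.sum_congr rfl fun a _ => ?_
  split_ifs with h1
  · rw [show (fun s => (θ : S → ℂ) ((a : MulAut S) s)) = (θ₁ : S → ℂ) from funext h1, hT.m1, Nat.cast_one]
  · rcases hp (a : MulAut S) with h2 | h2
    · exact absurd h2 h1
    · rw [show (fun s => (θ : S → ℂ) ((a : MulAut S) s)) = (θ₂ : S → ℂ) from funext h2, hT.m2, Nat.cast_zero]

/-- the order of the stabilizer -/
theorem card_stf (hT : Two U ψ θ₁ θ₂) (hA : ∀ s : S, MulAut.conj s ∈ A)
    (hinj : Function.Injective (MulAut.conj : S →* MulAut S)) :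
    Nat.card (stf (θ₁ : S → ℂ) A) * Nat.card (U : Subgroup S) = Nat.card S * Nat.card (Reg.st U ψ A) := by
  classical
  let ι : S →* A := (MulAut.conj : S →* MulAut S).codRestrict A hA
  have hι : Function.Injective ι := fun x y h => hinj (congrArg Subtype.val h)
  have hn : ι.range.Normal := H661.OC.range_normal A hA
  have hcl := Core.isCharacter_isClassFunction (Core.isIrr_isCharacter θ₁.2)
  have hcl' : ∀ t s : S, (θ₁ : S → ℂ) (MulAut.conj t s) = (θ₁ : S → ℂ) s := fun t s => hcl s t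
  have e1 : ι.range ⊔ Reg.st U ψ A = stf (θ₁ : S → ℂ) A := by
    apply le_antisymm
    · refine sup_le ?_ ?_
      · rintro _ ⟨t, rfl⟩ s
        exact hcl' t s
      · intro a ha
        rcases hT.perm1 (a : MulAut S) with h1 | h1
        · exact h1
        · exfalso
          have h2 := mU_comp ψ (θ₁ : S → ℂ) ha
          rw [show (fun s => (θ₁ : S → ℂ) ((a : MulAut S) s)) = (θ₂ : S → ℂ) from funext h1, hT.m1, hT.m2] at h2
          exact zero_ne_one h2
    · intro a ha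
      obtain ⟨t, ht⟩ := MulAction.exists_smul_eq S U ((a : MulAut S) • U)
      -- `b = t⁻¹ a` fixes `U`
      have hb : ((MulAut.conj t)⁻¹ * (a : MulAut S)) • U = U := by
        rw [mul_smul, inv_smul_eq_iff, conj_smul, ht]
      have hbθ : ∀ s, (θ₁ : S → ℂ) (((MulAut.conj t)⁻¹ * (a : MulAut S)) s) = (θ₁ : S → ℂ) s := by
        intro s
        rw [MulAut.mul_apply, ← map_inv, hcl', ha s]
      obtain ⟨v, hv, hv2⟩ := hT.orb _ hb hbθ
      -- `c = t⁻¹ a v⁻¹` fixes `ψ`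
      have hcA : (MulAut.conj t)⁻¹ * (a : MulAut S) * (MulAut.conj v)⁻¹ ∈ A :=
        A.mul_mem (A.mul_mem (A.inv_mem (hA t)) a.2) (A.inv_mem (hA v))
      have hvi : (MulAut.conj v)⁻¹ • U = U := by rw [inv_smul_eq_iff, hv]
      have hc : (⟨_, hcA⟩ : A) ∈ Reg.st U ψ A := by
        refine ⟨?_, fun u hu hcu => ?_⟩
        · show ((MulAut.conj t)⁻¹ * (a : MulAut S) * (MulAut.conj v)⁻¹) • U = U
          rw [mul_smul, hvi, hb]
        · have hu' : (MulAut.conj v)⁻¹ u ∈ U := mem_of_smul hvi hu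
          have hcu' : ((MulAut.conj t)⁻¹ * (a : MulAut S)) ((MulAut.conj v)⁻¹ u) ∈ U := hcu
          have h3 := hv2 _ hu' hcu' (by rw [MulAut.apply_inv_self]; exact hu)
          have h4 : ψ ⟨MulAut.conj v ((MulAut.conj v)⁻¹ u), by rw [MulAut.apply_inv_self]; exact hu⟩ = ψ ⟨u, hu⟩ := by
            congr 1
            exact Subtype.ext (MulAut.apply_inv_self _ _ _)
          exact h3.trans h4
      have e : a = ι t * ⟨_, hcA⟩ * ι v := by
        apply Subtype.ext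
        show (a : MulAut S) = MulAut.conj t * ((MulAut.conj t)⁻¹ * (a : MulAut S) * (MulAut.conj v)⁻¹) * MulAut.conj v
        group
      rw [e]
      exact Subgroup.mul_mem _ (Subgroup.mul_mem _ (Subgroup.mem_sup_left ⟨t, rfl⟩) (Subgroup.mem_sup_right hc))
        (Subgroup.mem_sup_left ⟨v, rfl⟩)
  have e2 : ι.range ⊓ Reg.st U ψ A = (U : Subgroup S).map ι := by
    ext a
    constructor
    · rintro ⟨⟨t, rfl⟩, ha⟩
      exact ⟨t, hT.free t ha.1 ha.2, rfl⟩
    · rintro ⟨u, hu, rfl⟩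
      exact ⟨⟨u, rfl⟩, Reg.conj_mem_st ψ hu (hA u)⟩
  have h1 := card_sup_mul ι.range (Reg.st U ψ A)
  rw [e1, e2, Subgroup.card_map_of_injective hι, ← Nat.card_congr (MonoidHom.ofInjective hι).toEquiv] at h1
  exact h1

/-- **the multiplicities** -/
theorem mult (hT : Two U ψ θ₁ θ₂) (hA : ∀ s : S, MulAut.conj s ∈ A)
    (hinj : Function.Injective (MulAut.conj : S →* MulAut S)) :
    classInner (res hA (ggc h ψ A)) (θ₁ : S → ℂ) = 1 ∧
      (classInner (res hA (ggc h ψ A)) (θ₂ : S → ℂ) = 0 ∨ classInner (res hA (ggc h ψ A)) (θ₂ : S → ℂ) = 1) := by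
  classical
  have hc := card_stf A hT hA hinj
  have hS : (Nat.card S : ℂ) ≠ 0 := Core.card_ne_zero_complex
  have hI : (Nat.card (Reg.st U ψ A) : ℂ) ≠ 0 := Core.card_ne_zero_complex
  have hc' : (Nat.card (stf (θ₁ : S → ℂ) A) : ℂ) * (Nat.card (U : Subgroup S) : ℂ) =
      (Nat.card S : ℂ) * (Nat.card (Reg.st U ψ A) : ℂ) := by exact_mod_cast hc
  have e0 : (Nat.card S : ℂ)⁻¹ * (Nat.card (Reg.st U ψ A) : ℂ)⁻¹ * (Nat.card (U : Subgroup S) : ℂ) *
      (Nat.card (stf (θ₁ : S → ℂ) A) : ℂ) = 1 := by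
    field_simp
    linear_combination hc'
  constructor
  · rw [inner_ggc h ψ A hA hT.free, sum_mU A hT θ₁ hT.perm1]
    exact e0
  · rw [inner_ggc h ψ A hA hT.free, sum_mU A hT θ₂ hT.perm2]
    by_cases hne : Nonempty {a : A // ∀ s, (θ₂ : S → ℂ) ((a : MulAut S) s) = (θ₁ : S → ℂ) s}
    · right
      obtain ⟨a₀, ha₀⟩ := hne
      have e3 : {a : A // ∀ s, (θ₂ : S → ℂ) ((a : MulAut S) s) = (θ₁ : S → ℂ) s} ≃ stf (θ₁ : S → ℂ) A :=
        { toFun := fun a => ⟨a₀⁻¹ * a.1, fun s => by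
            show (θ₁ : S → ℂ) ((a₀ : MulAut S)⁻¹ ((a.1 : MulAut S) s)) = (θ₁ : S → ℂ) s
            rw [← ha₀, MulAut.apply_inv_self, a.2]⟩
          invFun := fun b => ⟨a₀ * b.1, fun s => by
            show (θ₂ : S → ℂ) ((a₀ : MulAut S) ((b.1 : MulAut S) s)) = (θ₁ : S → ℂ) s
            rw [ha₀]
            exact b.2 s⟩
          left_inv := fun a => Subtype.ext (mul_inv_cancel_left _ _)
          right_inv := fun b => Subtype.ext (inv_mul_cancel_left _ _) }
      rw [Nat.card_congr e3]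
      exact e0
    · left
      rw [not_nonempty_iff] at hne
      have e4 : Nat.card {a : A // ∀ s, (θ₂ : S → ℂ) ((a : MulAut S) s) = (θ₁ : S → ℂ) s} = 0 :=
        @Nat.card_of_isEmpty _ hne
      rw [e4, Nat.cast_zero, mul_zero]

end Cfsg.Agent.H356.CY
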