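import Cfsg.Agent.H770.CY.Defs
import Cfsg.Agent.Characters.Linear
import Cfsg.Agent.S0148

/-!
# S4829, rank one in own characteristic (helper356): the Gelfand-Graev character on a group of automorphisms

`U` an abelian Sylow `p`-subgroup of the simple group `S`, regular on the other Sylow subgroups (`Reg`).

* `Reg.inner_of_fix` : an automorphism of `S` which centralizes `U` is conjugation by an element of `U`;
* `Reg.hat` : a linear character `ψ` of `U` extends canonically to the stabilizer `Reg.st` of `ψ` in `N_A(U)`.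
-/

set_option autoImplicit false

open Subgroup

namespace Cfsg.Agent.H356.CY

open Cfsg Cfsg.Agent.H770.CY
open scoped ComplexConjugate Pointwise

universe u

variable {p : ℕ} {S : Type u} [Group S]

/-- `U` is abelian and regular on the other Sylow subgroups -/
structure Reg (U P₀ : Sylow p S) : Prop where
  ab : ∀ x ∈ U, ∀ y ∈ U, x * y = y * x
  ne : P₀ ≠ U
  ex : ∀ P : Sylow p S, P ≠ U → ∃ u ∈ U, u • P₀ = P
  un : ∀ u ∈ U, u • P₀ = P₀ → u = 1

theorem aut_smul_smul (a : MulAut S) (g : S) (P : Sylow p S) : a • (g • P) = (a g) • (a • P) := by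
  rw [Sylow.smul_def, Sylow.smul_def, smul_smul, smul_smul]
  congr 1
  ext x
  simp [MulAut.mul_apply]

theorem conj_smul (g : S) (P : Sylow p S) : MulAut.conj g • P = g • P := Sylow.smul_def.symm

theorem mem_of_smul {a : MulAut S} {U : Sylow p S} (ha : a • U = U) {u : S} (hu : u ∈ U) : a u ∈ U := by
  have h : a • u ∈ a • (U : Subgroup S) := Subgroup.smul_mem_pointwise_smul u a _ hu
  have h2 : ((a • U : Sylow p S) : Subgroup S) = a • (U : Subgroup S) := Sylow.pointwise_smul_def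
  rw [← h2, ha] at h
  exact h

theorem smul_ne {a : MulAut S} {U P : Sylow p S} (ha : a • U = U) (hP : P ≠ U) : a • P ≠ U := by
  intro h
  exact hP (smul_left_cancel a (h.trans ha.symm))

namespace Reg

variable {U P₀ : Sylow p S}

/-- the element `u` of `U` with `u P₀ = a P₀` -/
noncomputable def uu (h : Reg U P₀) (a : MulAut S) (ha : a • U = U) : S :=
  (h.ex (a • P₀) (smul_ne ha h.ne)).choose

theorem uu_mem (h : Reg U P₀) (a : MulAut S) (ha : a • U = U) : h.uu a ha ∈ U :=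
  (h.ex (a • P₀) (smul_ne ha h.ne)).choose_spec.1

theorem uu_smul (h : Reg U P₀) (a : MulAut S) (ha : a • U = U) : h.uu a ha • P₀ = a • P₀ :=
  (h.ex (a • P₀) (smul_ne ha h.ne)).choose_spec.2

theorem inj (h : Reg U P₀) {u v : S} (hu : u ∈ U) (hv : v ∈ U) (e : u • P₀ = v • P₀) : u = v := by
  have h1 : (v⁻¹ * u) • P₀ = P₀ := by rw [mul_smul, e, inv_smul_smul]
  have h2 := h.un _ ((U : Subgroup S).mul_mem ((U : Subgroup S).inv_mem hv) hu) h1
  rwa [inv_mul_eq_one, eq_comm] at h2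

theorem uu_eq (h : Reg U P₀) {a : MulAut S} (ha : a • U = U) {u : S} (hu : u ∈ U) (e : u • P₀ = a • P₀) :
    h.uu a ha = u := h.inj (h.uu_mem a ha) hu ((h.uu_smul a ha).trans e.symm)

theorem uu_mul (h : Reg U P₀) {a b : MulAut S} (ha : a • U = U) (hb : b • U = U) (hab : (a * b) • U = U) :
    h.uu (a * b) hab = a (h.uu b hb) * h.uu a ha := by
  refine h.uu_eq _ ((U : Subgroup S).mul_mem (mem_of_smul ha (h.uu_mem b hb)) (h.uu_mem a ha)) ?_
  rw [mul_smul, h.uu_smul, ← aut_smul_smul, h.uu_smul, ← mul_smul]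

theorem conj_smul_self (U : Sylow p S) {u : S} (hu : u ∈ U) : MulAut.conj u • U = U := by
  rw [conj_smul, Sylow.smul_eq_iff_mem_normalizer]
  exact Subgroup.le_normalizer hu

theorem uu_conj (h : Reg U P₀) {u : S} (hu : u ∈ U) (hc : MulAut.conj u • U = U) : h.uu (MulAut.conj u) hc = u :=
  h.uu_eq _ hu (by rw [conj_smul])

/-- **an automorphism which centralizes `U` is conjugation by an element of `U`** -/
theorem inner_of_fix [Finite S] [Fact p.Prime] [IsSimpleGroup S] (h : Reg U P₀) {a : MulAut S}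
    (ha : ∀ u ∈ U, a u = u) : ∃ u ∈ U, a = MulAut.conj u := by
  have haU : a • U = U := by
    apply Sylow.ext
    rw [Sylow.pointwise_smul_def]
    ext x
    constructor
    · intro hx
      obtain ⟨y, hy, rfl⟩ := hx
      have e : a y = y := ha y hy
      change a y ∈ (U : Subgroup S)
      rw [e]
      exact hy
    · intro hx
      exact ⟨x, hx, ha x hx⟩
  refine ⟨h.uu a haU, h.uu_mem a haU, ?_⟩
  set u := h.uu a haU with hu
  have hum : u ∈ U := h.uu_mem a haU
  -- `b` fixes every Sylow subgroup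
  set b : MulAut S := (MulAut.conj u)⁻¹ * a with hb
  have hbP : b • P₀ = P₀ := by
    rw [hb, mul_smul, ← h.uu_smul a haU, ← hu, inv_smul_eq_iff, conj_smul]
  have hbU : ∀ v ∈ U, b v = v := by
    intro v hv
    have e1 : b v = (MulAut.conj u)⁻¹ (a v) := rfl
    rw [e1, ha v hv, MulAut.inv_apply, MulEquiv.symm_apply_eq, MulAut.conj_apply, h.ab u hum v hv, mul_inv_cancel_right]
  have hfix : ∀ P : Sylow p S, b • P = P := by
    intro P
    by_cases hP : P = U
    · rw [hP, hb, mul_smul, haU, inv_smul_eq_iff, conj_smul_self U hum]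
    · obtain ⟨v, hv, rfl⟩ := h.ex P hP
      rw [aut_smul_smul, hbU v hv, hbP]
  -- `b g g⁻¹` fixes every Sylow subgroup
  have hker : ∀ g : S, ∀ P : Sylow p S, (b g * g⁻¹) • P = P := by
    intro g P
    have e1 := aut_smul_smul b g (g⁻¹ • P)
    rw [smul_inv_smul, hfix, hfix] at e1
    rw [mul_smul]
    exact e1.symm
  have hbot : (MulAction.toPermHom S (Sylow p S)).ker = ⊥ := by
    rcases IsSimpleGroup.eq_bot_or_eq_top_of_normal _ (MonoidHom.normal_ker (MulAction.toPermHom S (Sylow p S))) with h0 | h0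
    · exact h0
    · exfalso
      obtain ⟨g, hg⟩ := MulAction.exists_smul_eq S P₀ U
      have hg2 : g ∈ (MulAction.toPermHom S (Sylow p S)).ker := by rw [h0]; exact Subgroup.mem_top g
      have hg3 : MulAction.toPermHom S (Sylow p S) g = 1 := hg2
      have hg4 : g • P₀ = P₀ := by
        have := congrFun (congrArg (fun e : Equiv.Perm (Sylow p S) => (e : Sylow p S → Sylow p S)) hg3) P₀
        simpa using this
      exact h.ne (hg4.symm.trans hg)
  have hb1 : b = 1 := by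
    ext g
    have hm : b g * g⁻¹ ∈ (MulAction.toPermHom S (Sylow p S)).ker := by
      rw [MonoidHom.mem_ker]
      exact Equiv.ext fun P => hker g P
    rw [hbot, Subgroup.mem_bot, mul_inv_eq_one] at hm
    rw [hm, MulAut.one_apply]
  rw [hb, inv_mul_eq_one] at hb1
  exact hb1.symm

/-- the stabilizer of `U` and `ψ` -/
def st (U : Sylow p S) (ψ : (U : Subgroup S) →* ℂˣ) (A : Subgroup (MulAut S)) : Subgroup A where
  carrier := {a | (a : MulAut S) • U = U ∧ ∀ (u : S) (hu : u ∈ U) (hau : (a : MulAut S) u ∈ U), ψ ⟨(a : MulAut S) u, hau⟩ = ψ ⟨u, hu⟩}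
  one_mem' := ⟨one_smul _ _, fun u hu hau => rfl⟩
  mul_mem' := by
    rintro a b ⟨ha, ha2⟩ ⟨hb, hb2⟩
    refine ⟨?_, fun u hu hau => ?_⟩
    · change ((a : MulAut S) * (b : MulAut S)) • U = U
      rw [mul_smul, hb, ha]
    · have hbu : (b : MulAut S) u ∈ U := mem_of_smul hb hu
      rw [← hb2 u hu hbu]
      exact ha2 _ hbu _
  inv_mem' := by
    rintro a ⟨ha, ha2⟩
    have hi : ((a : MulAut S)⁻¹) • U = U := by rw [inv_smul_eq_iff, ha]
    refine ⟨hi, fun u hu hau => ?_⟩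
    have h1 := ha2 _ (mem_of_smul hi hu) (by
      have e : (a : MulAut S) ((a : MulAut S)⁻¹ u) = u := MulAut.apply_inv_self S (a : MulAut S) u
      rw [e]
      exact hu)
    have e : (a : MulAut S) ((a : MulAut S)⁻¹ u) = u := MulAut.apply_inv_self S (a : MulAut S) u
    have e2 : (⟨(a : MulAut S) ((a : MulAut S)⁻¹ u), by rw [e]; exact hu⟩ : (U : Subgroup S)) = ⟨u, hu⟩ := Subtype.ext e
    rw [e2] at h1
    exact h1.symm

theorem mem_st {ψ : (U : Subgroup S) →* ℂˣ} {A : Subgroup (MulAut S)} {a : A} : a ∈ st U ψ A ↔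
    (a : MulAut S) • U = U ∧ ∀ (u : S) (hu : u ∈ U) (hau : (a : MulAut S) u ∈ U),
      ψ ⟨(a : MulAut S) u, hau⟩ = ψ ⟨u, hu⟩ := Iff.rfl

/-- the canonical extension of `ψ` -/
noncomputable def hat (h : Reg U P₀) (ψ : (U : Subgroup S) →* ℂˣ) (A : Subgroup (MulAut S)) : st U ψ A →* ℂˣ where
  toFun a := ψ ⟨h.uu ((a : A) : MulAut S) a.2.1, h.uu_mem _ _⟩
  map_one' := by
    rw [← map_one ψ]
    congr 1
    apply Subtype.ext
    exact h.uu_eq (a := 1) (one_smul _ _) (one_mem (U : Subgroup S))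
      ((one_smul S P₀).trans (one_smul (MulAut S) P₀).symm)
  map_mul' a b := by
    have hb := mem_of_smul a.2.1 (h.uu_mem ((b : A) : MulAut S) b.2.1)
    have h1 := a.2.2 _ (h.uu_mem ((b : A) : MulAut S) b.2.1) hb
    have e : (⟨h.uu (((a * b : st U ψ A) : A) : MulAut S) (a * b).2.1, h.uu_mem _ _⟩ : (U : Subgroup S)) =
        ⟨((a : A) : MulAut S) (h.uu ((b : A) : MulAut S) b.2.1), hb⟩ * ⟨h.uu ((a : A) : MulAut S) a.2.1, h.uu_mem _ _⟩ :=
      Subtype.ext (h.uu_mul a.2.1 b.2.1 (a * b).2.1)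
    rw [e, map_mul, h1, mul_comm]

theorem hat_apply (h : Reg U P₀) (ψ : (U : Subgroup S) →* ℂˣ) (A : Subgroup (MulAut S)) (a : st U ψ A) :
    h.hat ψ A a = ψ ⟨h.uu ((a : A) : MulAut S) a.2.1, h.uu_mem _ _⟩ := rfl

theorem conj_mem_st (ψ : (U : Subgroup S) →* ℂˣ) {A : Subgroup (MulAut S)} {u : S} (hu : u ∈ U)
    (hA : MulAut.conj u ∈ A) : (⟨MulAut.conj u, hA⟩ : A) ∈ st U ψ A := by
  refine ⟨conj_smul_self U hu, fun v hv hcv => ?_⟩
  have e : (⟨MulAut.conj u v, hcv⟩ : (U : Subgroup S)) = ⟨u, hu⟩ * ⟨v, hv⟩ * ⟨u, hu⟩⁻¹ := Subtype.ext rfl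
  have e2 : ψ ⟨MulAut.conj u v, hcv⟩ = ψ ⟨v, hv⟩ := by
    rw [e, map_mul, map_mul, map_inv, mul_comm, inv_mul_cancel_left]
  exact e2

theorem hat_conj (h : Reg U P₀) (ψ : (U : Subgroup S) →* ℂˣ) {A : Subgroup (MulAut S)} {u : S} (hu : u ∈ U)
    (hA : MulAut.conj u ∈ A) : h.hat ψ A ⟨⟨MulAut.conj u, hA⟩, conj_mem_st ψ hu hA⟩ = ψ ⟨u, hu⟩ := by
  rw [hat_apply]
  congr 1
  exact Subtype.ext (h.uu_conj hu (conj_smul_self U hu))

end Reg

end Cfsg.Agent.H356.CY
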